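import Mathlib
import Cfsg.Agent.H906.E6.SixR
import Cfsg.Agent.H906.E6.SixC
import Cfsg.Agent.H905.SixC.CrTy
import Cfsg.Agent.H401.SixLast
import Cfsg.Agent.H65.SixBoth
import Cfsg.Agent.H288.E6.C6Full

/-!
# S5927, S5928: the three-fold cover of `A₆` in characteristic 2 (helper958 and team)

Boxes: `exists_full` (helper288), `both_of` (helper65), `cr_ty` (helper905), `boxR` (helper906), `last` (helper401, with
helper944's `end_game`), small case: `exists_three` (helper906).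
-/

set_option autoImplicit false

namespace Cfsg.Agent.H163.E6.Cases

open Cfsg Cfsg.Lie Module Equiv
open Cfsg.Agent.ChevalleyStructure.E6Min.Tables Cfsg.Agent.ChevalleyStructure.E6Min.Basic
  Cfsg.Agent.ChevalleyStructure.E6Min.Adjoint
open Cfsg.Agent.H952.F4 (ev es matRep sh cr tf MaxAlt)
open Cfsg.Agent.H958.SixC Cfsg.Agent.H163.E6.SixC

universe u

variable {F : Type u} [Field F] [Finite F] [CharP F 2] {H : Subgroup ↥(chevE6.group F)}
  {φ : ↥(alternatingGroup (Fin 6)) →* ↥(chevE6.group F)}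

/-- **the three-fold cover of `A₆`, characteristic 2** -/
theorem sixc_two (hS : Sit H 6 φ)
    (hs : (Nat.card ↥H = 360 ∧ Small H) ∨ (∃ h ∈ H, h ∉ φ.range) ∨ ∃ q, Twist q φ ∧ Semi q φ) {ω : Fˣ}
    (hω : Cover φ ω) : False := by
  rcases hs with ⟨hcard, hsm⟩ | hs
  · -- `H = A₆`
    obtain ⟨ρ, hρ, W, hW, h3⟩ := H906.E6.SixC.exists_three hS.inj hω
    have hfin : Finite ↥H := Nat.finite_of_card_ne_zero (by rw [hcard]; norm_num)
    have hr : φ.range = H := by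
      apply Subgroup.eq_of_le_of_card_ge hS.le
      rw [hcard, ← Nat.card_congr (MonoidHom.ofInjective hS.inj).toEquiv, Nat.card_eq_fintype_card]
      have : Fintype.card ↥(alternatingGroup (Fin 6)) = 360 := by
        have h := two_mul_card_alternatingGroup (α := Fin 6)
        rw [Fintype.card_perm, Fintype.card_fin] at h
        have h6 : Nat.factorial 6 = 720 := by decide
        omega
      rw [this]
    rw [hr] at hW
    have := hsm ρ hρ W hW (by rw [h3]; norm_num)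
    rw [h3] at this
    omega
  · obtain ⟨ζ, z, g₁, g₂, β, t, a, hF, hζ, hz, hg1, hg2⟩ := exists_full hS.inj hω
    have hc1 : ∀ {ρ ρ' : Representation F ↥(Zgrp F) (I27 → F)}, Pr ρ ρ' → ∀ {W : Submodule F (I27 → F)},
        Ty φ ρ z g₁ W → Ty φ ρ' z g₂ (crs W W) := fun hp _ h => cr_ty hS hω hF hζ hp h
    have hc2 : ∀ {ρ ρ' : Representation F ↥(Zgrp F) (I27 → F)}, Pr ρ ρ' → ∀ {W : Submodule F (I27 → F)},
        Ty φ ρ z g₂ W → Ty φ ρ' z g₁ (crs W W) := fun hp _ h => cr_ty hS hω hF.symm hζ hp h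
    obtain ⟨W₁, W₂, S₁, S₂, f7, f7'⟩ := both_of hS hω hF hζ hc1 hc2 hs hz hg1 hg2
    refine H401.SixLast.last ?_ hS hω hF hζ hc1 hc2 W₁ W₂ S₁ S₂ f7 f7'
    intro ζ z g₁ g₂ β t a hF c X₁ X₂ Y _ _ _ _ _ _ _ _ _ ρ₁ ρ₂ σ h1 h2 h3 h4 u₁ u₂ k1 n1 k2 n2 B hB hne R hR
    exact boxR hF ρ₁ ρ₂ σ h1 h2 h3 h4 k1 n1 k2 n2 B hB hne R hR

end Cfsg.Agent.H163.E6.Cases
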